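/-
The fusion of the elements of order three of a Sylow 3-subgroup of `PΩ⁺(8, 3)` inside the explicit `Fi23`: the sequence, the blocks and the checks.
-/
import Mathlib
import Cfsg.Agent.Lib.Fischer.M23.R3.Defs
import Cfsg.Agent.Lib.Fischer.M23.R3.O8Data

set_option autoImplicit false
set_option maxRecDepth 100000

namespace Cfsg.Agent.Lib.Fischer.M23.R3.O8C

open Cfsg Cfsg.Agent.Lib.Compute.ToddCoxeterCore Cfsg.Agent.Lib.Compute.TCChain
open Cfsg.Agent.Lib.Compute.TCFast Cfsg.Agent.Lib.Compute.TC
open Cfsg.Agent.Lib.Fischer.M23.Explicit Cfsg.Agent.Lib.Fischer.M23.Rows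
open Cfsg.Agent.Lib.Fischer.M22.Rows.Pc

/-- The shifted sequence. -/
noncomputable def g1 (k : ℕ) : G1 := ge (k + 1)

/-- The shifted relations. -/
def W1 (k j : ℕ) : List ℕ := (Wt1.getD k []).getD j []

/-- The bound for the number of letters of a collection. -/
def FF1 : ℕ := 100000

/-- The normal forms. -/
noncomputable abbrev zz1 (n : ℕ) : G1 := zE (gl g1 0 12) n

theorem W_shift : ∀ k ∈ List.range 12, ∀ j ∈ List.range 12, W (k + 1) (j + 1) = (W1 k j).map Nat.succ := by
  decide +kernel

theorem wp_shift (w : List ℕ) : wp g1 w = wp ge (w.map Nat.succ) := by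
  induction w with
  | nil => rfl
  | cons x w ih =>
    rw [wp_cons, List.map_cons, wp_cons, ih]
    rfl

theorem pcRel1 : PcRel g1 12 W1 where
  cube k hk := pcRel.cube (k + 1) (by omega)
  rel k j hkj hj := by
    have h := pcRel.rel (k + 1) (j + 1) (by omega) (by omega)
    rw [W_shift k (List.mem_range.2 (by omega)) j (List.mem_range.2 hj), ← wp_shift] at h
    exact h
  letters k j hkj hj x hx := by
    have h := pcRel.letters (k + 1) (j + 1) (by omega) (by omega) (x + 1) (by
      rw [W_shift k (List.mem_range.2 (by omega)) j (List.mem_range.2 hj)]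
      exact List.mem_map.2 ⟨x, hx, rfl⟩)
    omega

theorem gl_shift (k f : ℕ) : gl g1 k f = gl ge (k + 1) f := by
  induction f generalizing k with
  | zero => rfl
  | succ f ih =>
    rw [gl_succ, gl_succ, ih]
    rfl

theorem isPcS1 : IsPcS (gl g1 0 12) := by
  rw [gl_shift]
  have h := isPcS_ge
  rw [show (13 : ℕ) = 12 + 1 from rfl, gl_succ] at h
  exact h.2

theorem zz1_val (n : ℕ) (i : Fin NN) : ((φ (zz1 n) i : Fin NN) : ℕ) = zvF (nat_lit 12) (nat_lit 1) n i := by
  rw [zz1, gl_shift]
  exact zvF_val 12 1 n i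

/-! ### The blocks -/

/-- The blocks. -/
def Bs : List ℕ := [B0, B1, B2]

/-- Membership in a block. -/
def inB (k q : ℕ) : Bool := Nat.testBit (Bs.getD k 0) q

/-- Two labels of a block, as atoms. -/
def sbA (x y : ℕ) : Bool :=
  Nat.ble 16 x && Nat.ble 16 y && Nat.blt x 31687 && Nat.blt y 31687 &&
    ((inB 0 (x - 16) && inB 0 (y - 16)) || (inB 1 (x - 16) && inB 1 (y - 16)) || (inB 2 (x - 16) && inB 2 (y - 16)))

/-- A word of pairs of labels of a block. -/
def pOK : List ℕ → Bool
  | [] => true
  | x :: y :: r => sbA x y && pOK r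
  | _ => false

/-! ### The fusion of the representatives -/

/-- A representative of a class of the Sylow subgroup. -/
def rOf1 (i : ℕ) : ℕ := (LT1.getD i (0, [], 0, 0, 0)).1

/-- The check of the fusion of a representative into an earlier one. -/
noncomputable def leafOK1 (i : ℕ) : Bool :=
  Bool.rec (motive := fun _ => Bool) false
    (Bool.rec (motive := fun _ => Bool) false
      (Bool.rec (motive := fun _ => Bool) false
        (Option.rec (motive := fun _ => Bool) false
          (fun m1 => Option.rec (motive := fun _ => Bool) false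
            (fun m2 => Nat.beq m1 m2)
            (mulC 12 W1 FF1 (rOf1 (LT1.getD i (0, [], 0, 0, 0)).2.2.2.2) (LT1.getD i (0, [], 0, 0, 0)).2.2.2.1))
          (mulC 12 W1 FF1 (LT1.getD i (0, [], 0, 0, 0)).2.2.2.1 (LT1.getD i (0, [], 0, 0, 0)).2.2.1))
        (base.all fun b => Nat.beq (run aV (LT1.getD i (0, [], 0, 0, 0)).2.1 (zvF (nat_lit 12) (nat_lit 1) (rOf1 i) b))
          (zvF (nat_lit 12) (nat_lit 1) (LT1.getD i (0, [], 0, 0, 0)).2.2.1 (run aV (LT1.getD i (0, [], 0, 0, 0)).2.1 b))))
      (wOK (LT1.getD i (0, [], 0, 0, 0)).2.1 && pOK (LT1.getD i (0, [], 0, 0, 0)).2.1))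
    (Nat.blt (LT1.getD i (0, [], 0, 0, 0)).2.2.2.2 i)

theorem leaf_a : (List.range' 13 60).all leafOK1 = true := by decide +kernel
theorem leaf_b : (List.range' 73 60).all leafOK1 = true := by decide +kernel
theorem leaf_c : (List.range' 133 60).all leafOK1 = true := by decide +kernel
theorem leaf_d : (List.range' 193 60).all leafOK1 = true := by decide +kernel
theorem leaf_e : (List.range' 253 60).all leafOK1 = true := by decide +kernel
theorem leaf_f : (List.range' 313 60).all leafOK1 = true := by decide +kernel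
theorem leaf_g : (List.range' 373 60).all leafOK1 = true := by decide +kernel
theorem leaf_h : (List.range' 433 47).all leafOK1 = true := by decide +kernel

theorem leaf_all {i : ℕ} (h1 : 13 ≤ i) (h2 : i < 480) : leafOK1 i = true := by
  by_cases h3 : i < 73
  · exact List.all_eq_true.1 leaf_a i (by rw [List.mem_range'_1]; omega)
  by_cases h4 : i < 133
  · exact List.all_eq_true.1 leaf_b i (by rw [List.mem_range'_1]; omega)
  by_cases h5 : i < 193
  · exact List.all_eq_true.1 leaf_c i (by rw [List.mem_range'_1]; omega)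
  by_cases h6 : i < 253
  · exact List.all_eq_true.1 leaf_d i (by rw [List.mem_range'_1]; omega)
  by_cases h7 : i < 313
  · exact List.all_eq_true.1 leaf_e i (by rw [List.mem_range'_1]; omega)
  by_cases h8 : i < 373
  · exact List.all_eq_true.1 leaf_f i (by rw [List.mem_range'_1]; omega)
  by_cases h9 : i < 433
  · exact List.all_eq_true.1 leaf_g i (by rw [List.mem_range'_1]; omega)
  · exact List.all_eq_true.1 leaf_h i (by rw [List.mem_range'_1]; omega)

theorem LT1_length : LT1.length = 480 := by decide +kernel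

theorem roots_ok : ∀ i ∈ List.range 13, rOf1 i = Rn1.getD i 0 := by decide +kernel

/-- The representatives of the Sylow subgroup. -/
noncomputable def lf1 (r : ℕ) : Bool :=
  Bool.rec (motive := fun _ => Bool) (LT1.any (fun e => Nat.beq e.1 r)) true (Nat.beq r (nat_lit 0))

/-! ### Pieces of the tree -/

theorem chk_split {M : ℕ} {W : ℕ → ℕ → List ℕ} {F : ℕ} {lf : ℕ → Bool} {a b c : CT} {k r r1 r2 : ℕ}
    (hk : Nat.blt k M = true) (h1 : Nat.add r (Nat.pow (nat_lit 3) k) = r1)
    (h2 : Nat.add r (Nat.mul (nat_lit 2) (Nat.pow (nat_lit 3) k)) = r2)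
    (ha : chk M W F lf a (Nat.succ k) r = true) (hb : chk M W F lf b (Nat.succ k) r1 = true)
    (hc : chk M W F lf c (Nat.succ k) r2 = true) : chk M W F lf (CT.split a b c) k r = true := by
  subst h1 h2
  have h0 : chk M W F lf (CT.split a b c) k r = Bool.rec (motive := fun _ => Bool) false
      (Bool.rec (motive := fun _ => Bool) false
        (Bool.rec (motive := fun _ => Bool) false
          (chk M W F lf c (Nat.succ k) (Nat.add r (Nat.mul (nat_lit 2) (Nat.pow (nat_lit 3) k))))
          (chk M W F lf b (Nat.succ k) (Nat.add r (Nat.pow (nat_lit 3) k))))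
        (chk M W F lf a (Nat.succ k) r))
      (Nat.blt k M) := rfl
  rw [h0, hk, ha, hb, hc]

theorem chk_merge {M : ℕ} {W : ℕ → ℕ → List ℕ} {F : ℕ} {lf : ℕ → Bool} {c : CT} {u1 u2 k r : ℕ}
    (hk : Nat.blt k M = true)
    (h1 : fuseOK M W F (Nat.succ k) u1 (Nat.add r (Nat.pow (nat_lit 3) k)) r = true)
    (h2 : fuseOK M W F (Nat.succ k) u2 (Nat.add r (Nat.mul (nat_lit 2) (Nat.pow (nat_lit 3) k))) r = true)
    (hc : chk M W F lf c (Nat.succ k) r = true) : chk M W F lf (CT.merge u1 u2 c) k r = true := by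
  have h0 : chk M W F lf (CT.merge u1 u2 c) k r = Bool.rec (motive := fun _ => Bool) false
      (Bool.rec (motive := fun _ => Bool) false
        (Bool.rec (motive := fun _ => Bool) false
          (chk M W F lf c (Nat.succ k) r)
          (fuseOK M W F (Nat.succ k) u2 (Nat.add r (Nat.mul (nat_lit 2) (Nat.pow (nat_lit 3) k))) r))
        (fuseOK M W F (Nat.succ k) u1 (Nat.add r (Nat.pow (nat_lit 3) k)) r))
      (Nat.blt k M) := rfl
  rw [h0, hk, h1, h2, hc]

end Cfsg.Agent.Lib.Fischer.M23.R3.O8C
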