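/-
The computations for the classes of subgroups of order three of `PΩ⁺(8, 3)` inside the explicit `Fi23`.
-/
import Mathlib
import Cfsg.Agent.Lib.Fischer.M23.R3.O8Chk
import Cfsg.Agent.Lib.Fischer.M24.O8.Iso

set_option autoImplicit false
set_option maxRecDepth 100000

namespace Cfsg.Agent.Lib.Fischer.M23.R3.O8C

open Cfsg Cfsg.Agent.Lib.Compute.ToddCoxeterCore Cfsg.Agent.Lib.Compute.TCChain
open Cfsg.Agent.Lib.Compute.TCFast Cfsg.Agent.Lib.Compute.TC
open Cfsg.Agent.Lib.Fischer.M23.Explicit Cfsg.Agent.Lib.Fischer.M23.Rows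
open Cfsg.Agent.Lib.Fischer.M22.Rows.Pc
open Cfsg.Agent.Lib.Fischer.M24.O8
open Cfsg.Agent.Lib.Fischer.M23.A3

/-- The check of a letter on the blocks. -/
noncomputable def chkBL (l q : ℕ) : Bool :=
  frc (rd (lT l) q) fun r =>
    (!inB 0 q || inB 0 r) && (!inB 1 q || inB 2 r) && (!inB 2 q || inB 1 r)

/-- The check of the further transposition on the blocks. -/
noncomputable def chkBT (q : ℕ) : Bool :=
  frc (tvA 49 23118 q) fun r =>
    (!inB 0 q || inB 2 r) && (!inB 1 q || inB 1 r) && (!inB 2 q || inB 0 r)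

theorem chkBL_all : ∀ l ∈ LS, allFrom (chkBL l) (nat_lit 31671) (nat_lit 0) = true := by decide +kernel

theorem chkBT_all : allFrom chkBT (nat_lit 31671) (nat_lit 0) = true := by decide +kernel

/-- The check that the first block is the class of transpositions. -/
noncomputable def chkB0 (q : ℕ) : Bool := !inB 0 q || inT q

theorem chkB0_all : allFrom chkB0 (nat_lit 31671) (nat_lit 0) = true := by decide +kernel

theorem nw_chk : ∀ k ∈ List.range 12, wEq (Yw.getD (k + 1) []) (NW.getD k []) = true ∧ pOK (NW.getD k []) = true := by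
  decide +kernel

/-- The number of fixed labels of a block, computed. -/
noncomputable def cntB (c k : ℕ) : ℕ :=
  cntF (fun q => Bool.rec (motive := fun _ => Bool) false
      (Nat.beq (zvF (nat_lit 12) (nat_lit 1) (Rn1.getD c 0) q) q) (inB k q))
    (nat_lit 31671) (nat_lit 0) (nat_lit 0)

/-- The table. -/
def TB : List (List ℕ) :=
  [[9, 9, 9], [18, 18, 18], [27, 27, 27], [0, 0, 27], [27, 0, 0], [0, 27, 0], [108, 108, 108], [0, 108, 0],
    [108, 0, 0], [0, 0, 108], [0, 0, 135], [135, 0, 0], [0, 135, 0]]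

/-- An entry of the table. -/
def tbE (c k : ℕ) : ℕ := (TB.getD c []).getD k 0

theorem cntB_all : ∀ c ∈ List.range 13, ∀ k ∈ List.range 3, Nat.beq (cntB c k) (tbE c k) = true := by
  decide +kernel

/-- The check of the order. -/
noncomputable def chk3 (c : ℕ) : Bool :=
  base.all (fun b => Nat.beq (zvF (nat_lit 12) (nat_lit 1) (Rn1.getD c 0)
    (zvF (nat_lit 12) (nat_lit 1) (Rn1.getD c 0) (zvF (nat_lit 12) (nat_lit 1) (Rn1.getD c 0) b))) b)

theorem chk3_all : ∀ c ∈ List.range 13, chk3 c = true := by decide +kernel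

theorem cnt_B0 : cntF (inB 0) (nat_lit 31671) (nat_lit 0) (nat_lit 0) = 1080 := by decide +kernel

end Cfsg.Agent.Lib.Fischer.M23.R3.O8C
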