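/-
The classes of subgroups of order three of `PΩ⁺(8, 3)` inside the explicit `Fi23`, and the orbits under its extension by `S₃`.
-/
import Mathlib
import Cfsg.Agent.Lib.Fischer.M23.R3.O8Tree
import Cfsg.Agent.Lib.Fischer.M24.O8.Main
import Cfsg.Agent.Lib.Fischer.M23.R3.O8Dec

set_option autoImplicit false
set_option maxRecDepth 100000

namespace Cfsg.Agent.Lib.Fischer.M23.R3.O8C

open Cfsg Cfsg.Agent.Lib.Compute.ToddCoxeterCore Cfsg.Agent.Lib.Compute.TCChain
open Cfsg.Agent.Lib.Compute.TCFast Cfsg.Agent.Lib.Compute.TC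
open Cfsg.Agent.Lib.Fischer.M23.Explicit Cfsg.Agent.Lib.Fischer.M23.Rows
open Cfsg.Agent.Lib.Fischer.M22.Rows.Pc
open Cfsg.Agent.Lib.Fischer.M24.O8 hiding chkP
open Cfsg.Agent.Lib.Fischer.M23.A3

theorem phi_apply_inv (a : G1) (q : Fin NN) : φ a (φ a⁻¹ q) = q := by
  rw [← Equiv.Perm.mul_apply, ← map_mul, mul_inv_cancel, map_one]
  rfl

theorem phi_inv_self' (a : G1) (q : Fin NN) : φ a⁻¹ (φ a q) = q := by
  rw [← Equiv.Perm.mul_apply, ← map_mul, inv_mul_cancel, map_one]
  rfl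

/-! ### The action on the blocks -/

/-- The element permutes the blocks by the permutation. -/
def RB (g : G1) (π : Equiv.Perm (Fin 3)) : Prop :=
  ∀ (k : Fin 3) (q : Fin NN), inB k q = true ↔ inB (π k) (φ g q) = true

theorem RB_one : RB 1 1 := by
  intro k q
  simp

theorem RB_mul {a b : G1} {π ρ : Equiv.Perm (Fin 3)} (ha : RB a π) (hb : RB b ρ) : RB (a * b) (π * ρ) := by
  intro k q
  rw [hb k q, ha (ρ k) (φ b q), map_mul, Equiv.Perm.mul_apply, Equiv.Perm.mul_apply]

theorem RB_inv {a : G1} {π : Equiv.Perm (Fin 3)} (ha : RB a π) : RB a⁻¹ π⁻¹ := by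
  intro k q
  have h := ha (π⁻¹ k) (φ a⁻¹ q)
  have e : π (π⁻¹ k) = k := by
    rw [← Equiv.Perm.mul_apply, mul_inv_cancel]
    rfl
  rw [e, phi_apply_inv] at h
  exact h.symm

/-- The permutation of the letters on the blocks. -/
def swL : Equiv.Perm (Fin 3) := Equiv.swap 1 2

/-- The permutation of the further transposition on the blocks. -/
def swT : Equiv.Perm (Fin 3) := Equiv.swap 0 2

/-- An involution which maps blocks to blocks permutes them. -/
theorem RB_of_invol {s : G1} {π : Equiv.Perm (Fin 3)} (hπ : π * π = 1) (hs : ∀ q : Fin NN, φ s (φ s q) = q)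
    (h : ∀ (k : Fin 3) (q : Fin NN), inB k q = true → inB (π k) (φ s q) = true) : RB s π := by
  intro k q
  refine ⟨h k q, fun h1 => ?_⟩
  have h2 := h (π k) _ h1
  rw [hs q] at h2
  have e : π (π k) = k := by
    have := congrArg (fun σ : Equiv.Perm (Fin 3) => σ k) hπ
    simpa using this
  rwa [e] at h2

theorem rb_L {k : ℕ} (hk : k ∈ LS) : RB (L k) swL := by
  apply RB_of_invol (by decide) (φ_gen_invol (Set.mem_insert_of_mem _ ⟨k, hk, rfl⟩))
  intro j q hq
  have h1 := at_lt (chkBL_all k hk) q.2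
  simp only [chkBL, frc_eq, Bool.and_eq_true, Bool.or_eq_true, Bool.not_eq_true'] at h1
  rw [φ_L_rd (LS_lt hk)]
  obtain ⟨⟨h0, h1⟩, h2⟩ := h1
  fin_cases j
  · rcases h0 with h0 | h0
    · exact absurd hq (by simp [h0])
    · exact h0
  · rcases h1 with h1 | h1
    · exact absurd hq (by simp [h1])
    · exact h1
  · rcases h2 with h2 | h2
    · exact absurd hq (by simp [h2])
    · exact h2

theorem rb_tb : RB tb swT := by
  apply RB_of_invol (by decide) (φ_gen_invol (Set.mem_insert _ _))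
  intro j q hq
  have h1 := at_lt chkBT_all q.2
  simp only [chkBT, frc_eq, Bool.and_eq_true, Bool.or_eq_true, Bool.not_eq_true'] at h1
  rw [φ_tb]
  obtain ⟨⟨h0, h1⟩, h2⟩ := h1
  fin_cases j
  · rcases h0 with h0 | h0
    · exact absurd hq (by simp [h0])
    · exact h0
  · rcases h1 with h1 | h1
    · exact absurd hq (by simp [h1])
    · exact h1
  · rcases h2 with h2 | h2
    · exact absurd hq (by simp [h2])
    · exact h2

theorem exists_RB {g : G1} (hg : g ∈ LL) : ∃ π, RB g π := by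
  induction hg using Subgroup.closure_induction with
  | mem s hs =>
    rcases hs with rfl | ⟨k, hk, rfl⟩
    · exact ⟨_, rb_tb⟩
    · exact ⟨_, rb_L hk⟩
  | one => exact ⟨_, RB_one⟩
  | mul a b _ _ iha ihb =>
    obtain ⟨π, hπ⟩ := iha
    obtain ⟨ρ, hρ⟩ := ihb
    exact ⟨_, RB_mul hπ hρ⟩
  | inv a _ iha =>
    obtain ⟨π, hπ⟩ := iha
    exact ⟨_, RB_inv hπ⟩

theorem RB_N2 {g : G1} (hg : g ∈ N2) : RB g 1 ∨ RB g swL := by
  induction hg using Subgroup.closure_induction with
  | mem s hs =>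
    obtain ⟨k, hk, rfl⟩ := hs
    exact Or.inr (rb_L hk)
  | one => exact Or.inl RB_one
  | mul a b _ _ iha ihb =>
    have e1 : (1 : Equiv.Perm (Fin 3)) * 1 = 1 := rfl
    have e2 : swL * swL = 1 := by decide
    rcases iha with h1 | h1 <;> rcases ihb with h2 | h2
    · left
      exact e1 ▸ RB_mul h1 h2
    · right
      simpa using RB_mul h1 h2
    · right
      simpa using RB_mul h1 h2
    · left
      exact e2 ▸ RB_mul h1 h2
  | inv a _ iha =>
    rcases iha with h1 | h1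
    · left
      simpa using RB_inv h1
    · right
      have e : swL⁻¹ = swL := by decide
      exact e ▸ RB_inv h1

/-- The elements fixing the blocks. -/
def KB : Subgroup G1 where
  carrier := {g | RB g 1}
  mul_mem' := by
    intro a b ha hb
    have e1 : (1 : Equiv.Perm (Fin 3)) * 1 = 1 := rfl
    exact e1 ▸ RB_mul ha hb
  one_mem' := RB_one
  inv_mem' := by
    intro a ha
    simpa using RB_inv ha

theorem N1_le_KB : N1 ≤ KB := by
  rw [N1, Subgroup.commutator_le]
  intro a ha b hb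
  rw [commutatorElement_def]
  show RB (a * b * a⁻¹ * b⁻¹) 1
  have key : ∀ π ρ : Equiv.Perm (Fin 3), (π = 1 ∨ π = swL) → (ρ = 1 ∨ ρ = swL) → π * ρ * π⁻¹ * ρ⁻¹ = 1 := by
    rintro π ρ (rfl | rfl) (rfl | rfl) <;> decide
  have h1 : ∃ π, (π = 1 ∨ π = swL) ∧ RB a π := by
    rcases RB_N2 ha with h | h
    · exact ⟨1, Or.inl rfl, h⟩
    · exact ⟨swL, Or.inr rfl, h⟩
  have h2 : ∃ π, (π = 1 ∨ π = swL) ∧ RB b π := by
    rcases RB_N2 hb with h | h
    · exact ⟨1, Or.inl rfl, h⟩
    · exact ⟨swL, Or.inr rfl, h⟩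
  obtain ⟨π, hπ, hπ'⟩ := h1
  obtain ⟨ρ, hρ, hρ'⟩ := h2
  have h3 := RB_mul (RB_mul (RB_mul hπ' hρ') (RB_inv hπ')) (RB_inv hρ')
  rwa [key π ρ hπ hρ] at h3

/-! ### Pairs of a block lie in the simple group -/

theorem pair_mem0 {a b : Fin NN} (ha : inB 0 a = true) (hb : inB 0 b = true) : t a * t b ∈ N1 := by
  have h1 := at_lt chkB0_all a.2
  have h2 := at_lt chkB0_all b.2
  simp only [chkB0, ha, hb, Bool.not_true, Bool.false_or] at h1 h2
  exact tt_mem_N1 ⟨a, h1⟩ ⟨b, h2⟩

theorem conj_pair {s : G1} (hs : s ∈ LL) {a b : Fin NN} (h : t (φ s a) * t (φ s b) ∈ N1) : t a * t b ∈ N1 := by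
  have e : t (φ s a) * t (φ s b) = s * (t a * t b) * s⁻¹ := by
    rw [← t_conj, ← t_conj]
    group
  rw [e] at h
  have h2 := (conj_N1 hs _ h).2
  have e2 : s⁻¹ * (s * (t a * t b) * s⁻¹) * s = t a * t b := by group
  rwa [e2] at h2

theorem pair_mem {k : Fin 3} {a b : Fin NN} (ha : inB k a = true) (hb : inB k b = true) : t a * t b ∈ N1 := by
  have hL1 : L 1 ∈ LL := L_mem_LL (k := 1) (by decide)
  fin_cases k
  · exact pair_mem0 ha hb
  · have hr := RB_mul rb_tb (rb_L (k := 1) (by decide))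
    have e : (swT * swL) 1 = 0 := by decide
    apply conj_pair (mul_mem tb_mem_LL hL1)
    apply pair_mem0
    · have := (hr 1 a).1 ha
      rwa [e] at this
    · have := (hr 1 b).1 hb
      rwa [e] at this
  · have e : swT 2 = 0 := by decide
    apply conj_pair tb_mem_LL
    apply pair_mem0
    · have := (rb_tb 2 a).1 ha
      rwa [e] at this
    · have := (rb_tb 2 b).1 hb
      rwa [e] at this

theorem sbA_mem {x y : ℕ} (h : sbA x y = true) : wE [x, y] ∈ N1 := by
  unfold sbA at h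
  simp only [Bool.and_eq_true, Bool.or_eq_true] at h
  obtain ⟨⟨⟨⟨h1, h2⟩, h3⟩, h4⟩, h5⟩ := h
  have h1' : 16 ≤ x := Nat.le_of_ble_eq_true h1
  have h2' : 16 ≤ y := Nat.le_of_ble_eq_true h2
  have h3' : x - 16 < NN := by
    have : x < 31687 := Nat.le_of_ble_eq_true h3
    show x - 16 < 31671
    omega
  have h4' : y - 16 < NN := by
    have : y < 31687 := Nat.le_of_ble_eq_true h4
    show y - 16 < 31671
    omega
  have e : wE [x, y] = t ⟨y - 16, h4'⟩ * t ⟨x - 16, h3'⟩ := by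
    show wordEl aG [x, y] = _
    simp only [wordEl_cons, wordEl_nil, one_mul]
    unfold aG
    rw [if_neg (by omega), if_neg (by omega)]
    rw [← tn_val, ← tn_val]
  rw [e]
  rcases h5 with (⟨h6, h7⟩ | ⟨h6, h7⟩) | ⟨h6, h7⟩
  · exact pair_mem (k := 0) h7 h6
  · exact pair_mem (k := 1) h7 h6
  · exact pair_mem (k := 2) h7 h6

theorem pOK_mem : ∀ {w : List ℕ}, pOK w = true → wE w ∈ N1
  | [], _ => one_mem _
  | [_], h => by simp [pOK] at h
  | x :: y :: r, h => by
    simp only [pOK, Bool.and_eq_true] at h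
    have e : wE (x :: y :: r) = wE r * wE [x, y] := (wE_append [x, y] r)
    rw [e]
    exact mul_mem (pOK_mem h.2) (sbA_mem h.1)

/-! ### The Sylow subgroup -/

/-- The Sylow subgroup. -/
noncomputable def P1 : Subgroup G1 := pcS (gl g1 0 12)

theorem card_P1 : Nat.card P1 = 3 ^ 12 := card_PP pcRel1 isPcS1

theorem g1_mem {k : ℕ} (hk : k < 12) : g1 k ∈ N1 := by
  obtain ⟨h1, h2⟩ := nw_chk k (List.mem_range.2 hk)
  have e : g1 k = wE (NW.getD k []) := wE_eq h1
  rw [e]
  exact pOK_mem h2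

theorem P1_le : P1 ≤ N1 := by
  rw [P1, pcS_eq_closure, Subgroup.closure_le]
  intro h hh
  obtain ⟨j, -, hj, rfl⟩ := (mem_gl g1).1 hh
  exact g1_mem (by omega)

theorem fact3 : (Nat.card N1).factorization 3 = 12 := by
  rw [card_N1]
  have h1 : (4952179814400 : ℕ) = 3 ^ 12 * 9318400 := by norm_num
  rw [h1, Nat.factorization_mul (by norm_num) (by norm_num), Nat.Prime.factorization_pow (by norm_num)]
  have h2 : (9318400 : ℕ).factorization 3 = 0 :=
    Nat.factorization_eq_zero_of_not_dvd (by norm_num)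
  simp [h2]

instance : Fact (Nat.Prime 3) := ⟨by norm_num⟩

/-- Every group of order three in the simple group is conjugate into the Sylow subgroup. -/
theorem conj_into (X : Subgroup G1) (hX : X ≤ N1) (hc : Nat.card X = 3) : ∃ u ∈ N1, X.map (MulAut.conj u).toMonoidHom ≤ P1 := by
  let X' : Subgroup ↥N1 := X.subgroupOf N1
  have hX' : Nat.card X' = 3 := by
    rw [Nat.card_congr (Subgroup.subgroupOfEquivOfLe hX).toEquiv, hc]
  have hZp : IsPGroup 3 X' := IsPGroup.of_card (n := 1) (by rw [hX']; norm_num)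
  obtain ⟨Q, hQ⟩ := hZp.exists_le_sylow
  let P' : Subgroup ↥N1 := P1.subgroupOf N1
  have hP' : Nat.card P' = 3 ^ 12 := by
    rw [Nat.card_congr (Subgroup.subgroupOfEquivOfLe P1_le).toEquiv, card_P1]
  let PS : Sylow 3 ↥N1 := Sylow.ofCard P' (by rw [fact3, hP'])
  have hPS : (PS : Subgroup ↥N1) = P' := Sylow.coe_ofCard _ _
  obtain ⟨g, hg⟩ := MulAction.exists_smul_eq ↥N1 Q PS
  have h1 : ((g • Q : Sylow 3 ↥N1) : Subgroup ↥N1) = P' := by rw [hg, hPS]
  rw [Sylow.coe_subgroup_smul] at h1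
  refine ⟨g.1, g.2, ?_⟩
  rintro _ ⟨x, hx, rfl⟩
  have hxN : x ∈ N1 := hX hx
  have h2 : (⟨x, hxN⟩ : ↥N1) ∈ Q := hQ (Subgroup.mem_subgroupOf.2 hx)
  have h3 : g * ⟨x, hxN⟩ * g⁻¹ ∈ P' := by
    rw [← h1]
    exact ⟨_, h2, rfl⟩
  have h4 := Subgroup.mem_subgroupOf.1 h3
  simpa using h4

/-- A group of order three is generated by any of its elements but the identity. -/
theorem exists_gen (X : Subgroup G1) (hX : Nat.card X = 3) : ∃ z ∈ X, z ^ 3 = 1 ∧ z ≠ 1 ∧ X = Subgroup.zpowers z := by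
  haveI : Nontrivial X := Finite.one_lt_card_iff_nontrivial.1 (by rw [hX]; norm_num)
  obtain ⟨z, hz, hzne⟩ := Subgroup.exists_ne_one_of_nontrivial X
  have hzo : orderOf z = 3 := by
    have h2 : orderOf z ∣ Nat.card X := Subgroup.orderOf_dvd_natCard X hz
    rw [hX] at h2
    rcases (Nat.dvd_prime (by norm_num)).1 h2 with h | h
    · exact absurd (orderOf_eq_one_iff.1 h) hzne
    · exact h
  refine ⟨z, hz, ?_, hzne, ?_⟩
  · rw [← hzo]
    exact pow_orderOf_eq_one z
  · symm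
    apply Subgroup.eq_of_le_of_card_ge
    · rwa [Subgroup.zpowers_le]
    · rw [hX, Nat.card_zpowers, hzo]

/-! ### The classes -/

/-- The representatives of the classes of elements. -/
noncomputable def rho1 (c : ℕ) : G1 := zz1 (Rn1.getD c 0)

/-- The elements conjugate to a representative. -/
def RR1 (x : G1) : Prop := ∃ c, c < 13 ∧ ∃ u ∈ N1, u * x * u⁻¹ = rho1 c

theorem zz1_mem (n : ℕ) : zz1 n ∈ N1 := P1_le (zE_mem _ _)

theorem leaf_R : ∀ i, i < 480 → RR1 (zz1 (rOf1 i)) := by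
  intro i
  induction i using Nat.strong_induction_on with
  | _ i ih =>
    intro hi
    by_cases h4 : i < 13
    · refine ⟨i, h4, 1, one_mem _, ?_⟩
      rw [roots_ok i (List.mem_range.2 h4)]
      simp [rho1]
    · have h0 := leaf_all (not_lt.1 h4) hi
      unfold leafOK1 at h0
      set e := LT1.getD i (0, [], 0, 0, 0) with he
      cases h1 : Nat.blt e.2.2.2.2 i with
      | false => rw [h1] at h0; cases h0
      | true =>
      rw [h1] at h0
      cases h2 : wOK e.2.1 with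
      | false => rw [h2] at h0; cases h0
      | true =>
      cases h2' : pOK e.2.1 with
      | false => rw [h2, h2'] at h0; cases h0
      | true =>
      rw [h2, h2'] at h0
      cases h3 : (base.all fun b => Nat.beq (run aV e.2.1 (zvF (nat_lit 12) (nat_lit 1) (rOf1 i) b))
          (zvF (nat_lit 12) (nat_lit 1) e.2.2.1 (run aV e.2.1 b))) with
      | false => rw [h3] at h0; cases h0
      | true =>
      rw [h3] at h0
      cases h5 : mulC 12 W1 FF1 e.2.2.2.1 e.2.2.1 with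
      | none => rw [h5] at h0; cases h0
      | some m1 =>
      rw [h5] at h0
      cases h6 : mulC 12 W1 FF1 (rOf1 e.2.2.2.2) e.2.2.2.1 with
      | none => rw [h6] at h0; cases h0
      | some m2 =>
      rw [h6] at h0
      have hm : m1 = m2 := Nat.eq_of_beq_eq_true h0
      subst hm
      have hp : e.2.2.2.2 < i := Nat.le_of_ble_eq_true h1
      obtain ⟨c, hc, v, hvN, hv⟩ := ih _ hp (by omega)
      refine ⟨c, hc, v * zz1 e.2.2.2.1 * wE e.2.1, mul_mem (mul_mem hvN (zz1_mem _)) (pOK_mem h2'), ?_⟩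
      have e1 : wE e.2.1 * zz1 (rOf1 i) = zz1 e.2.2.1 * wE e.2.1 := by
        apply base_ext'
        intro b hb
        apply Fin.ext
        have h7 := Nat.eq_of_beq_eq_true (List.all_eq_true.1 h3 b hb)
        rw [map_mul, map_mul, Equiv.Perm.coe_mul, Equiv.Perm.coe_mul, Function.comp_apply, Function.comp_apply,
          wE_val h2, zz1_val, zz1_val, wE_val h2]
        exact h7
      have e2 : zz1 e.2.2.2.1 * zz1 e.2.2.1 = zz1 (rOf1 e.2.2.2.2) * zz1 e.2.2.2.1 := by
        rw [← mulC_spec pcRel1 h5, mulC_spec pcRel1 h6]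
      calc v * zz1 e.2.2.2.1 * wE e.2.1 * zz1 (rOf1 i) * (v * zz1 e.2.2.2.1 * wE e.2.1)⁻¹
          = v * zz1 e.2.2.2.1 * (wE e.2.1 * zz1 (rOf1 i)) * (wE e.2.1)⁻¹ * (zz1 e.2.2.2.1)⁻¹ * v⁻¹ := by group
        _ = v * zz1 e.2.2.2.1 * (zz1 e.2.2.1 * wE e.2.1) * (wE e.2.1)⁻¹ * (zz1 e.2.2.2.1)⁻¹ * v⁻¹ := by rw [e1]
        _ = v * (zz1 e.2.2.2.1 * zz1 e.2.2.1) * (zz1 e.2.2.2.1)⁻¹ * v⁻¹ := by group
        _ = v * (zz1 (rOf1 e.2.2.2.2) * zz1 e.2.2.2.1) * (zz1 e.2.2.2.1)⁻¹ * v⁻¹ := by rw [e2]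
        _ = v * zz1 (rOf1 e.2.2.2.2) * v⁻¹ := by group
        _ = rho1 c := hv

theorem zz1_zero : zz1 0 = 1 := zE_zero _

/-- The result of the search: every element of order three of the Sylow subgroup is conjugate to a representative. -/
theorem conj_rho {z : G1} (hz : z ∈ P1) (h3 : z ^ 3 = 1) (h1 : z ≠ 1) : RR1 z := by
  have key := tree_all (Q := fun x => x ^ 3 = 1 → x ≠ 1 → RR1 x) pcRel1 isPcS1 ?_ ?_ (F := FF1) (lf := lf1) ?_ tree_ok hz
  · exact key h3 h1
  · intro u hu x hq hx3 hx1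
    have h5 : (u * x * u⁻¹) ^ 3 = 1 := by
      rw [conj_pow, hx3]
      simp
    have h6 : u * x * u⁻¹ ≠ 1 := by
      intro h7
      apply hx1
      have : x = u⁻¹ * (u * x * u⁻¹) * u := by group
      rw [this, h7]
      simp
    obtain ⟨c, hc, v, hvN, hv⟩ := hq h5 h6
    have hu' : u ∈ N1 := P1_le (by
      show u ∈ pcS (gl g1 0 12)
      simpa [PP] using hu)
    refine ⟨c, hc, v * u, mul_mem hvN hu', ?_⟩
    rw [← hv]
    group
  · intro x hx h4
    exact absurd h4 hx
  · intro r hr _ hne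
    unfold lf1 at hr
    cases h4 : Nat.beq r (nat_lit 0) with
    | true =>
      have : r = 0 := Nat.eq_of_beq_eq_true h4
      subst this
      exact absurd zz1_zero hne
    | false =>
      rw [h4] at hr
      obtain ⟨e, he, h5⟩ := List.any_eq_true.1 hr
      obtain ⟨i, hi, rfl⟩ := List.mem_iff_getElem.1 he
      have h6 : LT1[i].1 = r := Nat.eq_of_beq_eq_true h5
      have h7 : rOf1 i = r := by
        unfold rOf1
        rw [List.getD_eq_getElem _ _ hi]
        exact h6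
      rw [← h7]
      exact leaf_R i (by rw [LT1_length] at hi; exact hi)

/-- The groups of the classes. -/
noncomputable def Y13 (c : ℕ) : Subgroup G1 := Subgroup.zpowers (rho1 c)

theorem rho1_mem (c : ℕ) : rho1 c ∈ N1 := zz1_mem _

theorem Y13_le (c : ℕ) : Y13 c ≤ N1 := by
  rw [Y13, Subgroup.zpowers_le]
  exact rho1_mem c

theorem map_conj_mul (g h : G1) (X : Subgroup G1) :
    X.map (MulAut.conj (g * h)).toMonoidHom = (X.map (MulAut.conj h).toMonoidHom).map (MulAut.conj g).toMonoidHom := by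
  rw [Subgroup.map_map, map_mul]
  rfl

theorem card_map_conj (g : G1) (X : Subgroup G1) : Nat.card (X.map (MulAut.conj g).toMonoidHom) = Nat.card X :=
  Nat.card_congr ((MulAut.conj g).subgroupMap X).symm.toEquiv

theorem map_conj_le {g : G1} (hg : g ∈ N1) {X : Subgroup G1} (hX : X ≤ N1) : X.map (MulAut.conj g).toMonoidHom ≤ N1 := by
  rintro _ ⟨x, hx, rfl⟩
  exact mul_mem (mul_mem hg (hX hx)) (inv_mem hg)

/-- The classification of the subgroups of order three. -/
theorem cls13 (X : Subgroup G1) (hXN : X ≤ N1) (hX : Nat.card X = 3) :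
    ∃ c, c < 13 ∧ ∃ u ∈ N1, X.map (MulAut.conj u).toMonoidHom = Y13 c := by
  obtain ⟨g, hgN, hg⟩ := conj_into X hXN hX
  have hc1 : Nat.card (X.map (MulAut.conj g).toMonoidHom) = 3 := by rw [card_map_conj, hX]
  obtain ⟨z, hz, hz3, hz1, hgen⟩ := exists_gen _ hc1
  obtain ⟨c, hc, u, huN, hu⟩ := conj_rho (hg hz) hz3 hz1
  refine ⟨c, hc, u * g, mul_mem huN hgN, ?_⟩
  rw [map_conj_mul, hgen, MonoidHom.map_zpowers, Y13, ← hu]
  rfl

/-! ### The invariants -/

/-- The number of fixed labels of a block. -/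
noncomputable def FB (k : Fin 3) (X : Subgroup G1) : ℕ :=
  Nat.card {q : Fin NN // inB k q = true ∧ ∀ x ∈ X, φ x q = q}

theorem FB_conj {g : G1} {π : Equiv.Perm (Fin 3)} (hg : RB g π) (k : Fin 3) (X : Subgroup G1) :
    FB (π k) (X.map (MulAut.conj g).toMonoidHom) = FB k X := by
  symm
  apply Nat.card_congr
  refine
    { toFun := fun q => ⟨φ g q.1, (hg k q.1).1 q.2.1, ?_⟩
      invFun := fun q => ⟨φ g⁻¹ q.1, ?_, ?_⟩
      left_inv := ?_
      right_inv := ?_ }
  · rintro _ ⟨x, hx, rfl⟩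
    have h1 : φ (g * x * g⁻¹) (φ g q.1) = φ g (φ x q.1) := by
      rw [map_mul, map_mul, Equiv.Perm.mul_apply, Equiv.Perm.mul_apply, phi_inv_self']
    simp only [MulEquiv.coe_toMonoidHom, MulAut.conj_apply]
    rw [h1, q.2.2 x hx]
  · rw [hg k, phi_apply_inv]
    exact q.2.1
  · intro x hx
    have h1 := q.2.2 _ ⟨x, hx, rfl⟩
    simp only [MulEquiv.coe_toMonoidHom, MulAut.conj_apply] at h1
    have h2 : φ (g * x * g⁻¹) q.1 = φ g (φ x (φ g⁻¹ q.1)) := by
      rw [map_mul, map_mul, Equiv.Perm.mul_apply, Equiv.Perm.mul_apply]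
    rw [h2] at h1
    have h3 := congrArg (φ g⁻¹) h1
    rwa [phi_inv_self'] at h3
  · intro q
    apply Subtype.ext
    exact phi_inv_self' _ _
  · intro q
    apply Subtype.ext
    exact phi_apply_inv _ _

/-! ### The table of the invariants -/

theorem rho1_cube {c : ℕ} (hc : c < 13) : rho1 c ^ 3 = 1 := by
  apply base_ext'
  intro b hb
  apply Fin.ext
  have h := Nat.eq_of_beq_eq_true (List.all_eq_true.1 (chk3_all c (List.mem_range.2 hc)) b hb)
  rw [pow_succ, pow_two, map_mul, map_mul, Equiv.Perm.mul_apply, Equiv.Perm.mul_apply, rho1, zz1_val, zz1_val, zz1_val]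
  simpa using h

theorem ncard_labels (p : Fin NN → Prop) (f : ℕ → Bool) (hf : ∀ q : Fin NN, p q ↔ f q = true) :
    Nat.card {q : Fin NN // p q} = cntF f (nat_lit 31671) (nat_lit 0) (nat_lit 0) := by
  classical
  rw [Nat.card_eq_fintype_card, cntF_eq, Nat.zero_add, Fintype.card_subtype,
    ← Finset.card_image_of_injective _ Fin.val_injective]
  congr 1
  ext a
  simp only [Finset.mem_image, Finset.mem_filter, Finset.mem_univ, true_and, Finset.mem_Ico, Nat.zero_add]
  constructor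
  · rintro ⟨x, hx, rfl⟩
    exact ⟨⟨Nat.zero_le _, x.2⟩, (hf x).1 hx⟩
  · rintro ⟨⟨_, ha⟩, hb⟩
    exact ⟨⟨a, ha⟩, (hf ⟨a, ha⟩).2 hb, rfl⟩

theorem FB_val (c : ℕ) (k : Fin 3) : FB k (Y13 c) = cntB c k := by
  have e : Nat.card {q : Fin NN // inB k q = true ∧ ∀ x ∈ Y13 c, φ x q = q} =
      Nat.card {q : Fin NN // inB k q = true ∧ φ (rho1 c) q = q} := by
    apply Nat.card_congr
    apply Equiv.subtypeEquivRight
    intro q
    apply and_congr_right
    intro _
    constructor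
    · intro h
      exact h _ (Subgroup.mem_zpowers _)
    · rintro h _ ⟨n, rfl⟩
      show φ (rho1 c ^ n) q = q
      rw [map_zpow]
      exact Equiv.Perm.zpow_apply_eq_self_of_apply_eq_self h n
  rw [FB, e, cntB]
  apply ncard_labels
  intro q
  rw [Fin.ext_iff, rho1, zz1_val]
  cases h : inB k q with
  | false => simp
  | true =>
    constructor
    · rintro ⟨-, h2⟩
      show Nat.beq _ _ = true
      rw [h2]
      exact Nat.beq_refl _
    · intro h2
      exact ⟨rfl, Nat.eq_of_beq_eq_true h2⟩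

theorem FB_tb {c : ℕ} (hc : c < 13) (k : Fin 3) : FB k (Y13 c) = tbE c k := by
  rw [FB_val]
  exact Nat.eq_of_beq_eq_true (cntB_all c (List.mem_range.2 hc) k (List.mem_range.2 k.2))

theorem rho1_ne {c : ℕ} (hc : c < 13) : rho1 c ≠ 1 := by
  intro h
  have h1 : FB 0 (Y13 c) = cntF (inB 0) (nat_lit 31671) (nat_lit 0) (nat_lit 0) := by
    rw [FB]
    apply ncard_labels
    intro q
    constructor
    · exact fun h2 => h2.1
    · intro h2
      refine ⟨h2, ?_⟩
      rintro _ ⟨n, rfl⟩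
      show φ (rho1 c ^ n) q = q
      rw [h]
      simp
  rw [FB_tb hc, cnt_B0] at h1
  have h3 : ∀ c < 13, tbE c 0 ≠ 1080 := by decide
  exact h3 c hc h1

theorem rho1_order {c : ℕ} (hc : c < 13) : orderOf (rho1 c) = 3 := orderOf_eq_prime (rho1_cube hc) (rho1_ne hc)

theorem card_Y13 {c : ℕ} (hc : c < 13) : Nat.card (Y13 c) = 3 := by
  rw [Y13, Nat.card_zpowers, rho1_order hc]

theorem tb_inj : ∀ c < 13, ∀ d < 13, (∀ k : Fin 3, tbE c k = tbE d k) → c = d := by decide

/-- The classes are different. -/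
theorem dist13 {c d : ℕ} (hc : c < 13) (hd : d < 13) {u : G1} (hu : u ∈ N1)
    (h : (Y13 c).map (MulAut.conj u).toMonoidHom = Y13 d) : c = d := by
  apply tb_inj c hc d hd
  intro k
  have h1 := FB_conj (N1_le_KB hu : RB u 1) k (Y13 c)
  rw [h] at h1
  rw [← FB_tb hc, ← FB_tb hd]
  exact h1.symm

/-! ### The orbits -/

/-- The representatives of the orbits. -/
def sel : List ℕ := [0, 1, 2, 6, 4, 8, 11]

/-- The elements moving a position to the first one. -/
noncomputable def sS (j : Fin 3) : G1 :=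
  match j with
  | 0 => 1
  | 1 => Cfsg.Agent.Lib.Fischer.M24.O8.tb * L 1
  | 2 => Cfsg.Agent.Lib.Fischer.M24.O8.tb

/-- Their permutations of the blocks. -/
def pS (j : Fin 3) : Equiv.Perm (Fin 3) :=
  match j with
  | 0 => 1
  | 1 => swT * swL
  | 2 => swT

theorem sS_RB (j : Fin 3) : RB (sS j) (pS j) := by
  fin_cases j
  · exact RB_one
  · exact RB_mul rb_tb (rb_L (k := 1) (by decide))
  · exact rb_tb

theorem sS_mem (j : Fin 3) : sS j ∈ LL := by
  fin_cases j
  · exact one_mem _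
  · exact mul_mem tb_mem_LL (L_mem_LL (k := 1) (by decide))
  · exact tb_mem_LL

theorem orbit_tab : ∀ c : Fin 13, ∃ j : Fin 3, ∀ d : Fin 13, (∀ k : Fin 3, tbE d (pS j k) = tbE c k) → d.1 ∈ sel := by
  decide +kernel

theorem dist_tab : ∀ π : Equiv.Perm (Fin 3), ∀ i j : Fin 7,
    (∀ k : Fin 3, tbE (sel.getD j 0) (π k) = tbE (sel.getD i 0) k) → i = j := by
  decide +kernel

theorem sel_lt : ∀ i : Fin 7, sel.getD i 0 < 13 := by decide

/-- Every group of order three of the simple group is in one of the seven orbits. -/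
theorem cls7 (X : Subgroup G1) (hXN : X ≤ N1) (hX : Nat.card X = 3) :
    ∃ d : Fin 7, ∃ g ∈ LL, X.map (MulAut.conj g).toMonoidHom = Y13 (sel.getD d 0) := by
  obtain ⟨c, hc, u, hu, h1⟩ := cls13 X hXN hX
  obtain ⟨j, hj⟩ := orbit_tab ⟨c, hc⟩
  have hX2 : (Y13 c).map (MulAut.conj (sS j)).toMonoidHom ≤ N1 := by
    rintro _ ⟨x, hx, rfl⟩
    exact (conj_N1 (sS_mem j) x (Y13_le c hx)).1
  have hX3 : Nat.card ((Y13 c).map (MulAut.conj (sS j)).toMonoidHom) = 3 := by
    rw [card_map_conj, card_Y13 hc]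
  obtain ⟨d, hd, v, hv, h2⟩ := cls13 _ hX2 hX3
  have hm : d ∈ sel := by
    apply hj ⟨d, hd⟩
    intro k
    have e1 := FB_conj (N1_le_KB hv : RB v 1) (pS j k) ((Y13 c).map (MulAut.conj (sS j)).toMonoidHom)
    have e2 := FB_conj (sS_RB j) k (Y13 c)
    rw [h2] at e1
    show tbE d (pS j k) = tbE c k
    rw [← FB_tb hd, ← FB_tb hc, ← e2]
    exact e1
  obtain ⟨i, hi, rfl⟩ := List.mem_iff_getElem.1 hm
  refine ⟨⟨i, hi⟩, v * sS j * u, mul_mem (mul_mem (N1_le_LL hv) (sS_mem j)) (N1_le_LL hu), ?_⟩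
  rw [map_conj_mul, map_conj_mul, h1, h2, List.getD_eq_getElem _ _ hi]

/-- The seven orbits are different. -/
theorem dist7 {i j : Fin 7} {g : G1} (hg : g ∈ LL)
    (h : (Y13 (sel.getD i 0)).map (MulAut.conj g).toMonoidHom = Y13 (sel.getD j 0)) : i = j := by
  obtain ⟨π, hπ⟩ := exists_RB hg
  apply dist_tab π i j
  intro k
  have h1 := FB_conj hπ k (Y13 (sel.getD i 0))
  rw [h] at h1
  rw [← FB_tb (sel_lt i), ← FB_tb (sel_lt j)]
  exact h1

/-! ### The transport -/

section Transport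

variable {A : Type*} [Group A]

theorem map_conj_comm {B : Type*} [Group B] (f : A →* B) (g : A) (X : Subgroup A) :
    (X.map (MulAut.conj g).toMonoidHom).map f = (X.map f).map (MulAut.conj (f g)).toMonoidHom := by
  rw [Subgroup.map_map, Subgroup.map_map]
  congr 1
  ext x
  simp

/-- The transport of a classification along an injective homomorphism. -/
theorem transport (f : A →* G1) (hf : Function.Injective f) {n : ℕ} (S : Fin n → Subgroup G1)
    (K : Subgroup G1) (hS : ∀ i, S i ≤ f.range) (h3 : ∀ i, Nat.card (S i) = 3)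
    (hd : ∀ i j, ∀ g ∈ f.range, (S i).map (MulAut.conj g).toMonoidHom = S j → i = j)
    (hc : ∀ X : Subgroup G1, X ≤ K → Nat.card X = 3 → ∃ i, ∃ g ∈ f.range, X.map (MulAut.conj g).toMonoidHom = S i) :
    ∃ Y : Fin n → Subgroup A, (∀ i, Y i = (S i).comap f) ∧ (∀ i, Nat.card (Y i) = 3) ∧
      (∀ i j, (∃ g : A, (Y i).map (MulAut.conj g).toMonoidHom = Y j) → i = j) ∧
      ∀ X : Subgroup A, X.map f ≤ K → Nat.card X = 3 →
        ∃ i, ∃ g : A, X.map (MulAut.conj g).toMonoidHom = Y i := by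
  have hm : ∀ i, ((S i).comap f).map f = S i := fun i => Subgroup.map_comap_eq_self (hS i)
  have hcard : ∀ X : Subgroup A, Nat.card (X.map f) = Nat.card X := fun X => Subgroup.card_map_of_injective hf
  refine ⟨fun i => (S i).comap f, fun _ => rfl, ?_, ?_, ?_⟩
  · intro i
    rw [← hcard, hm, h3]
  · rintro i j ⟨g, hg⟩
    apply hd i j (f g) ⟨g, rfl⟩
    have h1 := congrArg (Subgroup.map f) hg
    rw [map_conj_comm, hm, hm] at h1
    exact h1
  · intro X hXK hX
    obtain ⟨i, _, ⟨g, rfl⟩, h1⟩ := hc (X.map f) hXK (by rw [hcard, hX])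
    refine ⟨i, g, ?_⟩
    apply Subgroup.map_injective hf
    rw [map_conj_comm, h1, hm]

end Transport

end Cfsg.Agent.Lib.Fischer.M23.R3.O8C
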